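import Mathlib.GroupTheory.PGroup
import Mathlib.GroupTheory.Commutator.Basic
import Mathlib.Algebra.BigOperators.Group.Finset.Basic

/-!
The Baer sum on a group of odd exponent `p` and class at most two, and a fixed point lemma.
-/

open scoped commutatorElement

namespace Cfsg.Agent.Components

/-- A type copy of `D` to carry the Baer sum. -/
structure BaerSum (D : Type*) where
  val : D

variable {D : Type*} [Group D]

theorem baerSum_op_assoc (hc : ∀ x y z : D, ⁅x, y⁆ * z = z * ⁅x, y⁆) (e : ℕ) (a b c : D) :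
    a * b * ⁅a, b⁆ ^ e * c * ⁅a * b * ⁅a, b⁆ ^ e, c⁆ ^ e =
      a * (b * c * ⁅b, c⁆ ^ e) * ⁅a, b * c * ⁅b, c⁆ ^ e⁆ ^ e := by
  have hmulL : ∀ x y z : D, ⁅x * y, z⁆ = ⁅x, z⁆ * ⁅y, z⁆ := by
    intro x y z
    rw [commutatorElement_mul_left_eq_conj_mul, ← hc y z x, mul_inv_cancel_right, hc y z]
  have hmulR : ∀ x y z : D, ⁅x, y * z⁆ = ⁅x, y⁆ * ⁅x, z⁆ := by
    intro x y z
    rw [← commutatorElement_inv, hmulL, mul_inv_rev, commutatorElement_inv, commutatorElement_inv,
      hc x z]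
  have hcc : ∀ (x y : D) (z : D) (n : ℕ), Commute (⁅x, y⁆ ^ n) z :=
    fun x y z n => Commute.pow_left (hc x y z) n
  rw [hmulL (a * b) (⁅a, b⁆ ^ e) c, hmulR a (b * c) (⁅b, c⁆ ^ e),
    commutatorElement_eq_one_iff_mul_comm.mpr (hcc a b c e).eq,
    commutatorElement_eq_one_iff_mul_comm.mpr (hcc b c a e).eq.symm, mul_one, mul_one, hmulL, hmulR,
    Commute.mul_pow (show Commute ⁅a, c⁆ ⁅b, c⁆ from hc a c _),
    Commute.mul_pow (show Commute ⁅a, b⁆ ⁅a, c⁆ from hc a b _)]
  calc a * b * ⁅a, b⁆ ^ e * c * (⁅a, c⁆ ^ e * ⁅b, c⁆ ^ e)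
      = a * b * (⁅a, b⁆ ^ e * c) * ⁅a, c⁆ ^ e * ⁅b, c⁆ ^ e := by group
    _ = a * b * (c * ⁅a, b⁆ ^ e) * ⁅a, c⁆ ^ e * ⁅b, c⁆ ^ e := by rw [(hcc a b c e).eq]
    _ = a * b * c * (⁅a, b⁆ ^ e * ⁅a, c⁆ ^ e * ⁅b, c⁆ ^ e) := by group
    _ = a * b * c * (⁅b, c⁆ ^ e * (⁅a, b⁆ ^ e * ⁅a, c⁆ ^ e)) := by
      rw [(hcc b c (⁅a, b⁆ ^ e * ⁅a, c⁆ ^ e) e).eq]
    _ = a * (b * c * ⁅b, c⁆ ^ e) * (⁅a, b⁆ ^ e * ⁅a, c⁆ ^ e) := by group

/-- In a group `D` of class at most two and odd prime exponent `p`, a group of automorphisms `Q` of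
order prime to `p` normalised by a `p`-group `A` and not trivial moves some point fixed by `A`. -/
theorem exists_fixed_moved {p : ℕ} [Fact p.Prime] (hp2 : p ≠ 2) [Finite D]
    (hc : ∀ x y z : D, ⁅x, y⁆ * z = z * ⁅x, y⁆) (hexp : ∀ x : D, x ^ p = 1)
    {A : Type*} [Group A] (hA : IsPGroup p A) (Q : Subgroup (MulAut D))
    (hQ : (Nat.card Q).Coprime p) (ψ : A →* MulAut D)
    (hperm : ∀ a : A, ∀ q ∈ Q, ψ a * q * (ψ a)⁻¹ ∈ Q) (hmove : Q ≠ ⊥) :
    ∃ u : D, (∀ a : A, ψ a u = u) ∧ ∃ q ∈ Q, q u ≠ u := by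
  classical
  obtain ⟨e, he⟩ := (Fact.out : p.Prime).odd_of_ne_two hp2
  letI : CommGroup (BaerSum D) :=
    { mul := fun x y => ⟨x.val * y.val * ⁅x.val, y.val⁆ ^ e⟩
      one := ⟨1⟩
      inv := fun x => ⟨x.val⁻¹⟩
      mul_assoc := fun a b c => congrArg BaerSum.mk (baerSum_op_assoc hc e a.val b.val c.val)
      one_mul := fun a => congrArg BaerSum.mk (by
        show (1 : D) * a.val * ⁅(1 : D), a.val⁆ ^ e = a.val
        simp)
      mul_one := fun a => congrArg BaerSum.mk (by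
        show a.val * (1 : D) * ⁅a.val, (1 : D)⁆ ^ e = a.val
        simp)
      inv_mul_cancel := fun a => congrArg BaerSum.mk (by
        show a.val⁻¹ * a.val * ⁅a.val⁻¹, a.val⁆ ^ e = 1
        simp [commutatorElement_def])
      mul_comm := fun a b => congrArg BaerSum.mk (by
        show a.val * b.val * ⁅a.val, b.val⁆ ^ e = b.val * a.val * ⁅b.val, a.val⁆ ^ e
        have h1 : a.val * b.val = ⁅a.val, b.val⁆ * (b.val * a.val) := by
          rw [commutatorElement_def]; group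
        rw [← commutatorElement_inv a.val b.val, inv_pow, h1, hc, mul_assoc, ← pow_succ']
        congr 1
        rw [eq_inv_iff_mul_eq_one, ← pow_add, show e + 1 + e = 2 * e + 1 by ring, ← he, hexp]) }
  have hval : ∀ (x : BaerSum D) (n : ℕ), (x ^ n).val = x.val ^ n := by
    intro x n
    induction n with
    | zero => rw [pow_zero, pow_zero]; rfl
    | succ n ih =>
      rw [pow_succ, pow_succ]
      show (x ^ n).val * x.val * ⁅(x ^ n).val, x.val⁆ ^ e = _
      rw [ih, commutatorElement_eq_one_iff_mul_comm.mpr (Commute.pow_self x.val n).eq, one_pow,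
        mul_one]
  let T : MulAut D →* MulAut (BaerSum D) :=
    { toFun := fun f =>
        { toFun := fun x => ⟨f x.val⟩
          invFun := fun x => ⟨f.symm x.val⟩
          left_inv := fun x => congrArg BaerSum.mk (f.symm_apply_apply x.val)
          right_inv := fun x => congrArg BaerSum.mk (f.apply_symm_apply x.val)
          map_mul' := fun x y => congrArg BaerSum.mk (by
            show f (x.val * y.val * ⁅x.val, y.val⁆ ^ e) = _
            rw [map_mul, map_mul, map_pow, map_commutatorElement]) }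
      map_one' := rfl
      map_mul' := fun _ _ => rfl }
  haveI : Finite (BaerSum D) := Finite.of_equiv D ⟨BaerSum.mk, BaerSum.val, fun _ => rfl, fun _ => rfl⟩
  haveI : Fintype Q := Fintype.ofFinite Q
  let N : BaerSum D →* BaerSum D :=
    { toFun := fun v => ∏ q : Q, T (q : MulAut D) v
      map_one' := by simp
      map_mul' := fun x y => by simp [Finset.prod_mul_distrib] }
  have hNQ : ∀ (q0 : Q) (v : BaerSum D), N (T (q0 : MulAut D) v) = N v := by
    intro q0 v
    show ∏ q : Q, T (q : MulAut D) (T (q0 : MulAut D) v) = ∏ q : Q, T (q : MulAut D) v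
    refine Fintype.prod_equiv (Equiv.mulRight q0) _ _ fun q => ?_
    rfl
  have hNA : ∀ (a : A) (v : BaerSum D), T (ψ a) (N v) = N (T (ψ a) v) := by
    intro a v
    show T (ψ a) (∏ q : Q, T (q : MulAut D) v) = ∏ q : Q, T (q : MulAut D) (T (ψ a) v)
    rw [map_prod]
    let σ : Q → Q := fun q => ⟨ψ a * q * (ψ a)⁻¹, hperm a q q.2⟩
    have hσ : Function.Bijective σ := Finite.injective_iff_bijective.mp fun q r h => Subtype.ext
      (mul_left_cancel (mul_right_cancel (congrArg Subtype.val h)))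
    refine Fintype.prod_equiv (Equiv.ofBijective σ hσ) _ _ fun q => ?_
    show T (ψ a) (T (q : MulAut D) v) = T (ψ a * q * (ψ a)⁻¹) (T (ψ a) v)
    rw [← MulAut.mul_apply, ← map_mul, ← MulAut.mul_apply, ← map_mul, inv_mul_cancel_right]
  have hinv : ∀ (a : A) (v : BaerSum D), v ∈ N.ker → T (ψ a) v ∈ N.ker := by
    intro a v hv
    rw [MonoidHom.mem_ker, ← hNA, MonoidHom.mem_ker.mp hv, map_one]
  letI : MulAction A N.ker :=
    { smul := fun a v => ⟨T (ψ a) v, hinv a v v.2⟩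
      one_smul := fun v => Subtype.ext (by
        show T (ψ 1) (v : BaerSum D) = v
        rw [map_one, map_one]; rfl)
      mul_smul := fun a b v => Subtype.ext (by
        show T (ψ (a * b)) (v : BaerSum D) = T (ψ a) (T (ψ b) v)
        rw [map_mul, map_mul]; rfl) }
  have hker : N.ker ≠ ⊥ := by
    obtain ⟨q, hq⟩ := Subgroup.ne_bot_iff_exists_ne_one.mp hmove
    obtain ⟨x, hx⟩ : ∃ x : D, (q : MulAut D) x ≠ x := by
      by_contra hcon
      push Not at hcon
      exact hq (Subtype.ext (MulEquiv.ext hcon))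
    intro hbot
    have hmem : T (q : MulAut D) ⟨x⟩ * (⟨x⟩ : BaerSum D)⁻¹ ∈ N.ker := by
      rw [MonoidHom.mem_ker, map_mul, hNQ, ← map_mul, mul_inv_cancel, map_one]
    rw [hbot, Subgroup.mem_bot, mul_inv_eq_one] at hmem
    exact hx (congrArg BaerSum.val hmem)
  have hdvd : p ∣ Nat.card N.ker := by
    have hP : IsPGroup p N.ker := fun v => ⟨1, Subtype.ext (by
      show ((v : BaerSum D) ^ p ^ 1) = 1
      have h : ((v : BaerSum D) ^ p ^ 1).val = 1 := by rw [hval, pow_one, hexp]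
      exact (congrArg BaerSum.mk h : _))⟩
    haveI : Nontrivial N.ker := (Subgroup.nontrivial_iff_ne_bot _).mpr hker
    obtain ⟨n, hn0, hn⟩ := hP.nontrivial_iff_card.mp inferInstance
    exact hn.symm ▸ dvd_pow_self _ (ne_of_gt hn0)
  obtain ⟨⟨u, hu⟩, hfix, hne⟩ := hA.exists_fixed_point_of_prime_dvd_card_of_fixed_point N.ker hdvd
    (a := 1) (fun a => Subtype.ext (map_one (T (ψ a))))
  refine ⟨u.val, fun a => congrArg (fun z => BaerSum.val (Subtype.val z)) (hfix a), ?_⟩
  by_contra hcon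
  push Not at hcon
  refine hne (Subtype.ext ?_)
  have h1 : N u = u ^ Nat.card Q := by
    show ∏ q : Q, T (q : MulAut D) u = _
    have hq' : ∀ q : Q, T (q : MulAut D) u = u := fun q =>
      congrArg BaerSum.mk (hcon (q : MulAut D) (SetLike.coe_mem q))
    rw [Finset.prod_congr rfl (fun q _ => hq' q), Finset.prod_const, Finset.card_univ,
      Nat.card_eq_fintype_card]
  rw [MonoidHom.mem_ker.mp hu] at h1
  have h2 : orderOf u ∣ Nat.card Q := orderOf_dvd_of_pow_eq_one h1.symm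
  have h3 : orderOf u ∣ p := orderOf_dvd_of_pow_eq_one (by
    have h : (u ^ p).val = 1 := by rw [hval, hexp]
    exact (congrArg BaerSum.mk h : _))
  exact (orderOf_eq_one_iff.mp (Nat.eq_one_of_dvd_coprimes hQ h2 h3)).symm

end Cfsg.Agent.Components
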