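import Mathlib.LinearAlgebra.Matrix.SpecialLinearGroup
import Mathlib.Data.ZMod.Basic

/-!
Finite checks in `SL(2, 3)`, done on quadruples over `ZMod 3`.
-/

namespace Cfsg.Agent.SL23

set_option synthInstance.maxSize 5000
set_option maxRecDepth 20000

abbrev Quad := ZMod 3 × ZMod 3 × ZMod 3 × ZMod 3

/-- Product of two quadruples as 2 by 2 matrices. -/
def qmul (x y : Quad) : Quad :=
  (x.1 * y.1 + x.2.1 * y.2.2.1, x.1 * y.2.1 + x.2.1 * y.2.2.2,
    x.2.2.1 * y.1 + x.2.2.2 * y.2.2.1, x.2.2.1 * y.2.1 + x.2.2.2 * y.2.2.2)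

/-- Determinant. -/
def qdet (x : Quad) : ZMod 3 := x.1 * x.2.2.2 - x.2.1 * x.2.2.1

/-- Inverse in determinant one. -/
def qinv (x : Quad) : Quad := (x.2.2.2, -x.2.1, -x.2.2.1, x.1)

/-- The identity. -/
def qone : Quad := (1, 0, 0, 1)

/-- Fourth power. -/
def qfour (x : Quad) : Quad := qmul (qmul x x) (qmul x x)

/-- Third power. -/
def qthree (x : Quad) : Quad := qmul (qmul x x) x

theorem central_involution : ∀ t : Quad, qdet t = 1 → qmul t t = qone →
    t = qone ∨ t = (2, 0, 0, 2) := by decide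

theorem centralizer_small : ∀ x : Quad, qdet x = 1 →
    qmul x (0, 2, 1, 0) = qmul (0, 2, 1, 0) x → qmul x (1, 1, 1, 2) = qmul (1, 1, 1, 2) x →
    qfour x = qone := by decide

theorem four_mul : ∀ x : Quad, qdet x = 1 → qfour x = qone →
    ∀ y : Quad, qdet y = 1 → qfour y = qone → qfour (qmul x y) = qone := by decide

theorem core_small : ∀ x : Quad, qdet x = 1 → qthree x = qone →
    qthree (qmul (qmul (qmul (0, 2, 1, 0) x) (qinv (0, 2, 1, 0))) (qinv x)) = qone →
    qthree (qmul (qmul (qmul (1, 1, 1, 2) x) (qinv (1, 1, 1, 2))) (qinv x)) = qone →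
    x = qone := by decide

/-- Coordinates of an element of `SL(2, 3)`. -/
def coord (g : Matrix.SpecialLinearGroup (Fin 2) (ZMod 3)) : Quad :=
  (g.1 0 0, g.1 0 1, g.1 1 0, g.1 1 1)

theorem coord_det (g : Matrix.SpecialLinearGroup (Fin 2) (ZMod 3)) : qdet (coord g) = 1 := by
  have h := g.2
  rw [Matrix.det_fin_two] at h
  exact h

theorem coord_mul (g h : Matrix.SpecialLinearGroup (Fin 2) (ZMod 3)) :
    coord (g * h) = qmul (coord g) (coord h) := by
  simp [coord, qmul, Matrix.mul_apply, Fin.sum_univ_two]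

theorem coord_one : coord 1 = qone := by
  simp [coord, qone]

theorem coord_injective : Function.Injective coord := by
  intro g h e
  simp only [coord, Prod.mk.injEq] at e
  refine Subtype.ext (Matrix.ext fun i j => ?_)
  fin_cases i <;> fin_cases j <;> simp [e]

theorem coord_inv (g : Matrix.SpecialLinearGroup (Fin 2) (ZMod 3)) :
    coord g⁻¹ = qinv (coord g) := by
  simp [coord, qinv, Matrix.SpecialLinearGroup.coe_inv, Matrix.adjugate_fin_two]

end Cfsg.Agent.SL23
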